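import Cfsg.Agent.H838.IF.Defs
import Cfsg.Agent.ClassicalGeometry.PSUAutBasic

/-!
# S5719, `PSU_4(q)`: the package `Pk` from `IF` (helper838)
-/

set_option autoImplicit false
set_option linter.unusedSectionVars false

namespace Cfsg.Agent.H838.IF

open Module Subgroup Cfsg Cfsg.Agent.H91.U Cfsg.Agent.H450.UF Cfsg.Agent.H450.Bs Cfsg.Agent.H209.Fxy
open Cfsg.Agent.LieClassical.HermBasic
open Cfsg.Agent.H77.Witt (formB)

variable {F : Type*} [Field F] [Fintype F] {q : ℕ}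

/-- the preimage of `A` -/
noncomputable def HA (hF : Fintype.card F = q ^ 2) (A : Subgroup (PSU 4 F q)) :
    Subgroup ((Fin 4 → F) ≃ₗ[F] (Fin 4 → F)) :=
  (A.comap (pi hF 4)).map (SIso (formB hF 4)).subtype

theorem mem_HA {hF : Fintype.card F = q ^ 2} {A : Subgroup (PSU 4 F q)} {g : (Fin 4 → F) ≃ₗ[F] (Fin 4 → F)} :
    g ∈ HA hF A ↔ ∃ h : g ∈ SIso (formB hF 4), pi hF 4 ⟨g, h⟩ ∈ A := by
  constructor
  · rintro ⟨x, hx, rfl⟩
    exact ⟨x.2, hx⟩
  · rintro ⟨h, hx⟩
    exact ⟨⟨g, h⟩, hx, rfl⟩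

theorem scal_of_pi (hF : Fintype.card F = q ^ 2) (g : SIso (formB hF 4)) (h : pi hF 4 g = 1) : Scal g.1 := by
  obtain ⟨g', rfl⟩ := (toIso hF).surjective g
  rw [pi_toIso, QuotientGroup.mk'_apply, QuotientGroup.eq_one_iff] at h
  obtain ⟨c, -, -, hc⟩ := Cfsg.Agent.ClassicalGeometry.PSUAutBasic.exists_scalar_of_mem_center hF (by norm_num) h
  exact ⟨c, fun v => by rw [toIso_apply, hc]⟩

theorem pi_of_scal (hF : Fintype.card F = q ^ 2) (g : SIso (formB hF 4)) (h : Scal g.1) : pi hF 4 g = 1 := by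
  obtain ⟨g', rfl⟩ := (toIso hF).surjective g
  rw [pi_toIso, QuotientGroup.mk'_apply, QuotientGroup.eq_one_iff, mem_center_iff]
  intro y
  apply (toIso hF).injective
  rw [map_mul, map_mul]
  apply Subtype.ext
  obtain ⟨a, ha⟩ := h
  apply LinearEquiv.ext
  intro v
  rw [Subgroup.coe_mul, Subgroup.coe_mul, LinearEquiv.mul_apply, LinearEquiv.mul_apply, ha, ha, map_smul]

theorem exists_noncomm {T : Type*} [Group T] [IsSimpleGroup T] {A : Subgroup T} {Γ : Subgroup (MulAut T)}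
    (h : IF A Γ) : ∃ a b : T, a * b ≠ b * a := by
  by_contra hcon
  push Not at hcon
  have hn : A.Normal := ⟨fun a ha g => by rw [hcon g a, mul_inv_cancel_right]; exact ha⟩
  rcases hn.eq_bot_or_eq_top with h1 | h1
  · exact h.ne_bot h1
  · exact h.ne_top h1

theorem index_le_cls {V : Type*} [AddCommGroup V] [Module F V] [Finite V] {σ : F →+* F} (B : V →ₛₗ[σ] V →ₗ[F] F)
    (t : SIso B) : (centralizer ({t} : Set (SIso B))).index ≤ cls B t.1 := by
  classical
  have := Finite.of_injective (fun e : V ≃ₗ[F] V => (e : V → V)) (fun _ _ h => LinearEquiv.ext fun v => congrFun h v)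
  let φ : (SIso B) ⧸ centralizer ({t} : Set (SIso B)) → {s : V ≃ₗ[F] V | ∃ g ∈ SIso B, s = g * t.1 * g⁻¹} :=
    fun x => ⟨(Quotient.out x).1 * t.1 * (Quotient.out x).1⁻¹, _, (Quotient.out x).2, rfl⟩
  have hφ : Function.Injective φ := by
    intro x y hxy
    have h1 : (Quotient.out x).1 * t.1 * (Quotient.out x).1⁻¹ = (Quotient.out y).1 * t.1 * (Quotient.out y).1⁻¹ :=
      congrArg Subtype.val hxy
    rw [← QuotientGroup.out_eq' x, ← QuotientGroup.out_eq' y, QuotientGroup.eq, mem_centralizer_iff]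
    intro z hz
    rw [Set.mem_singleton_iff.1 hz]
    apply Subtype.ext
    change t.1 * ((Quotient.out x).1⁻¹ * (Quotient.out y).1) = (Quotient.out x).1⁻¹ * (Quotient.out y).1 * t.1
    have h2 : (Quotient.out x).1⁻¹ * ((Quotient.out x).1 * t.1 * (Quotient.out x).1⁻¹) * (Quotient.out y).1 =
        (Quotient.out x).1⁻¹ * ((Quotient.out y).1 * t.1 * (Quotient.out y).1⁻¹) * (Quotient.out y).1 := by rw [h1]
    group at h2 ⊢
    exact h2
  have h3 := Nat.card_le_card_of_injective φ hφ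
  rw [Subgroup.index]
  refine h3.trans (le_of_eq ?_)
  rw [cls, Nat.card_coe_set_eq]

/-- **the package** -/
theorem pk_of_IF (hF : Fintype.card F = q ^ 2) [IsSimpleGroup (PSU 4 F q)] {A : Subgroup (PSU 4 F q)}
    {Γ : Subgroup (MulAut (PSU 4 F q))} (h : IF A Γ) : Pk (formB hF 4) (HA hF A) := by
  have hfin : Finite ((Fin 4 → F) ≃ₗ[F] (Fin 4 → F)) := Finite.of_injective
    (fun e : (Fin 4 → F) ≃ₗ[F] (Fin 4 → F) => (e : (Fin 4 → F) → (Fin 4 → F)))
    (fun _ _ h => LinearEquiv.ext fun v => congrFun h v)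
  have hfin2 : Finite (PSU 4 F q) := Finite.of_surjective _ (pi_surjective hF 4)
  refine ⟨?_, ?_, ?_, ?_⟩
  · intro g hg
    exact (mem_HA.1 hg).1
  · intro hle
    apply h.ne_top
    rw [eq_top_iff]
    intro x _
    obtain ⟨g, rfl⟩ := pi_surjective hF 4 x
    obtain ⟨h1, h2⟩ := mem_HA.1 (hle g.2)
    exact h2
  · intro g hg hs
    refine mem_HA.2 ⟨hg, ?_⟩
    rw [pi_of_scal hF ⟨g, hg⟩ hs]
    exact A.one_mem
  · intro t ht hns hsc K hK hcomm
    obtain ⟨hT, hA⟩ := mem_HA.1 ht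
    have hE := Cfsg.Agent.H847.IF.lift_E2 h (exists_noncomm h) (pi hF 4) (pi_surjective hF 4) hA
      (fun h1 => hns (scal_of_pi hF _ h1)) (pi_of_scal hF _ hsc) (B := K.comap (SIso (formB hF 4)).subtype) (by
      intro b hb
      obtain ⟨a, ha⟩ := hcomm b.1 hb
      rw [← mul_inv_eq_one, ← map_inv, ← map_mul]
      apply pi_of_scal
      refine ⟨a, fun v => ?_⟩
      have h1 := ha ((⟨t, hT⟩ * b)⁻¹.1 v)
      have h2 : t (b.1 ((⟨t, hT⟩ * b)⁻¹.1 v)) = v := by
        change (⟨t, hT⟩ * b : SIso (formB hF 4)).1 ((⟨t, hT⟩ * b)⁻¹.1 v) = v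
        rw [← LinearEquiv.mul_apply, ← Subgroup.coe_mul, mul_inv_cancel]
        rfl
      rw [h2] at h1
      exact h1)
    have h4 : (HA hF A).relIndex K = (A.comap (pi hF 4)).relIndex (K.comap (SIso (formB hF 4)).subtype) := by
      have h5 : K = (K.comap (SIso (formB hF 4)).subtype).map (SIso (formB hF 4)).subtype := by
        rw [Subgroup.map_comap_eq, Subgroup.range_subtype, inf_eq_right.2 hK]
      conv_lhs => rw [h5]
      rw [HA, Subgroup.relIndex_map_map_of_injective _ _ (SIso (formB hF 4)).subtype_injective]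
    rw [h4]
    exact lt_of_lt_of_le hE (index_le_cls (formB hF 4) ⟨t, hT⟩)

end Cfsg.Agent.H838.IF
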